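import Cfsg.Agent.H4.PP0
import Cfsg.Agent.H21.PStab2

/-! The graph of primitive pairs of characteristic `p`. -/

set_option autoImplicit false
set_option linter.unusedSectionVars false

namespace Cfsg.Agent.H4

open Subgroup Cfsg.Agent.H70 Cfsg.Agent.H92
open scoped commutatorElement

variable {G : Type*} [Group G] [Finite G] {p : ℕ} [Fact p.Prime] {P : Subgroup G → Prop}

/-- A primitive pair of characteristic `p` whose members have the property `P`
(together with all their conjugates). -/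
structure PP (p : ℕ) (P : Subgroup G → Prop) (X Y : Subgroup G) : Prop where
  ne : X ≠ Y
  p1 : ∀ A : Subgroup G, A ≠ ⊥ → A ≤ X ⊓ Y → X ≤ normalizer (A : Set G) →
    Y ⊓ normalizer (A : Set G) ≤ X
  p2 : ∀ A : Subgroup G, A ≠ ⊥ → A ≤ X ⊓ Y → Y ≤ normalizer (A : Set G) →
    X ⊓ normalizer (A : Set G) ≤ Y
  c1 : IsChar p X
  c2 : IsChar p Y
  q1 : pCoreOf p X ≤ Y
  q2 : pCoreOf p Y ≤ X
  g1 : ∀ g, P (cj g X)
  g2 : ∀ g, P (cj g Y)

/-- The largest `p`-reduced normal subgroup. -/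
abbrev zz (p : ℕ) (X : Subgroup G) : Subgroup G := largestPReducedOf p X

theorem zz_le_q (X : Subgroup G) : zz p X ≤ pCoreOf p X := (YL_pRed X).le_pCoreOf
theorem zz_elem (X : Subgroup G) : IsElementaryAbelian p (zz p X) := (YL_pRed X).elem
theorem zz_norm (X : Subgroup G) : X ≤ normalizer (zz p X : Set G) := (YL_pRed X).norm

namespace PP

variable {X Y : Subgroup G}

theorem symm (h : PP p P X Y) : PP p P Y X :=
  ⟨h.ne.symm, fun A a b => h.p2 A a (inf_comm X Y ▸ b), fun A a b => h.p1 A a (inf_comm X Y ▸ b),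
    h.c2, h.c1, h.q2, h.q1, h.g2, h.g1⟩

theorem good (h : PP p P X Y) : P X := cj_one X ▸ h.g1 1

theorem p1_cj (h : PP p P X Y) (g : G) (A : Subgroup G) (a : A ≠ ⊥) (b : A ≤ cj g X ⊓ cj g Y)
    (c : cj g X ≤ normalizer (A : Set G)) : cj g Y ⊓ normalizer (A : Set G) ≤ cj g X := by
  rw [← cj_cj_inv g A, ← cj_normalizer] at c ⊢
  rw [← cj_inf, cj_le_cj_iff]
  exact h.p1 _ (fun e => a (cj_eq_bot_iff.1 e)) (le_cj_iff.1 (cj_inf g X Y ▸ b))
    ((cj_le_cj_iff g).1 c)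

theorem cj (h : PP p P X Y) (g : G) : PP p P (cj g X) (cj g Y) :=
  ⟨fun e => h.ne ((cj_inj g).1 e), h.p1_cj g, fun A a b => h.symm.p1_cj g A a (b.trans (inf_comm _ _).le),
    h.c1.cj g, h.c2.cj g, cj_pCoreOf (p := p) g X ▸ cj_mono g h.q1,
    cj_pCoreOf (p := p) g Y ▸ cj_mono g h.q2, fun k => cj_mul k g X ▸ h.g1 _,
    fun k => cj_mul k g Y ▸ h.g2 _⟩

theorem cj_of_mem (h : PP p P X Y) {g : G} (hg : g ∈ X) : PP p P X (H70.cj g Y) := by
  have := h.cj g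
  rwa [cj_eq_self_of_mem hg] at this

theorem q_ne_bot (h : PP p P X Y) : pCoreOf p X ≠ ⊥ := fun e => by
  have key : ∀ {Z : Subgroup G}, IsChar p Z → pCoreOf p Z = ⊥ → Z = ⊥ := fun a b => by
    rwa [IsChar, b, H21.centralizer_bot', inf_top_eq, le_bot_iff] at a
  have h1 := key h.c1 e
  exact h.ne (h1.trans (key h.c2 (le_bot_iff.1 (h1 ▸ h.q2))).symm)

theorem z_ne_bot (h : PP p P X Y) : zz p X ≠ ⊥ := fun e => by
  obtain ⟨T, hT⟩ := exists_sylIn p X
  exact oz_ne_bot hT.pgroup (fun a => h.q_ne_bot (le_bot_iff.1 (a ▸ pCoreOf_le_sylIn hT)))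
    (le_bot_iff.1 (e ▸ oz_le_YL h.c1 hT))

theorem cent_le (h : PP p P X Y) : X ⊓ centralizer (zz p Y : Set G) ≤ Y :=
  (inf_le_inf_left X (norm_of_cent le_rfl)).trans (h.p2 _ h.symm.z_ne_bot
    ((zz_le_q Y).trans (le_inf h.q2 (pCoreOf_le Y))) (zz_norm Y))

end PP

/-- The subgroup generated by the `zz` of the neighbours. -/
def vv (p : ℕ) (P : Subgroup G → Prop) (X : Subgroup G) : Subgroup G :=
  ⨆ Y : {Y : Subgroup G // PP p P X Y}, zz p Y.1

theorem le_vv {X Y : Subgroup G} (h : PP p P X Y) : zz p Y ≤ vv p P X :=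
  le_iSup (fun Y : {Y : Subgroup G // PP p P X Y} => zz p Y.1) ⟨Y, h⟩

theorem vv_le {X N : Subgroup G} (h : ∀ Y, PP p P X Y → zz p Y ≤ N) : vv p P X ≤ N :=
  iSup_le fun Y => h Y.1 Y.2

theorem cj_vv (g : G) (X : Subgroup G) : cj g (vv p P X) = vv p P (cj g X) := by
  have key : ∀ (g : G) (X : Subgroup G), cj g (vv p P X) ≤ vv p P (cj g X) := fun g X =>
    cj_le_iff_le_cj_inv.2 (vv_le fun Y h => cj_le_iff_le_cj_inv.1 (cj_YL (p := p) g Y ▸
      le_vv (h.cj g)))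
  refine le_antisymm (key g X) (le_cj_iff.2 ?_)
  simpa only [cj_inv_cj] using key g⁻¹ (cj g X)

theorem vv_norm (X : Subgroup G) : X ≤ normalizer (vv p P X : Set G) := fun g hg => by
  rw [← cj_eq_self_iff, cj_vv, cj_eq_self_of_mem hg]

/-- Walks in the graph. -/
inductive Wk (p : ℕ) (P : Subgroup G → Prop) : ℕ → Subgroup G → Subgroup G → Prop
  | base {X Y : Subgroup G} : PP p P X Y → Wk p P 0 X X
  | step {n : ℕ} {X Y Z : Subgroup G} : PP p P X Y → Wk p P n Y Z → Wk p P (n + 1) X Z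

namespace Wk

variable {n : ℕ} {X Y Z : Subgroup G}

theorem snoc (h : Wk p P n X Y) (h' : PP p P Y Z) : Wk p P (n + 1) X Z := by
  induction h with
  | base _ => exact step h' (base h'.symm)
  | step a _ ih => exact step a (ih h')

theorem symm (h : Wk p P n X Y) : Wk p P n Y X := by
  induction h with
  | base a => exact base a
  | step a _ ih => exact ih.snoc a.symm

theorem cj (h : Wk p P n X Y) (g : G) : Wk p P n (cj g X) (cj g Y) := by
  induction h with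
  | base a => exact base (a.cj g)
  | step a _ ih => exact step (a.cj g) ih

theorem uncons (h : Wk p P (n + 1) X Z) : ∃ Y, PP p P X Y ∧ Wk p P n Y Z := by
  cases h with
  | step a b => exact ⟨_, a, b⟩

theorem eq (h : Wk p P 0 X Y) : X = Y := by
  cases h with
  | base a => rfl

end Wk

theorem PP.exists_bad {X Y : Subgroup G} (h : PP p P X Y) :
    ∃ n, ∃ U V, Wk p P n U V ∧ ¬ zz p U ≤ pCoreOf p V := by
  by_contra a
  push Not at a
  set K := ⨆ U : {U : Subgroup G // ∃ n, Wk p P n U X}, zz p U.1 with hK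
  have hle : ∀ U n, Wk p P n U X → zz p U ≤ K := fun U n b =>
    le_iSup (fun U : {U : Subgroup G // ∃ n, Wk p P n U X} => zz p U.1) ⟨U, n, b⟩
  have h1 : K ≤ X ⊓ Y := (iSup_le fun U => U.2.elim fun n b => a n _ _ b).trans
    (le_inf (pCoreOf_le X) h.q1)
  have h2 : K ≠ ⊥ := fun e => h.z_ne_bot (le_bot_iff.1 (e ▸ hle X 0 (Wk.base h)))
  have n1 : X ≤ normalizer (K : Set G) := le_norm_iff_cj.2 fun g hg =>
    cj_le_iff_le_cj_inv.2 (iSup_le fun U => U.2.elim fun n b => cj_le_iff_le_cj_inv.1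
      (cj_YL (p := p) g U.1 ▸ hle _ n (by simpa only [cj_eq_self_of_mem hg] using b.cj g)))
  have n2 : Y ≤ normalizer (K : Set G) := le_norm_iff_cj.2 fun g hg =>
    cj_le_iff_le_cj_inv.2 (iSup_le fun U => U.2.elim fun n b => cj_le_iff_le_cj_inv.1
      (cj_YL (p := p) g U.1 ▸ hle _ _ (Wk.snoc (by
        simpa only [cj_eq_self_of_mem hg] using (b.snoc h).cj g) h.symm)))
  exact h.ne (le_antisymm ((le_inf le_rfl n1).trans (h.p2 K h2 h1 n2))
    ((le_inf le_rfl n2).trans (h.p1 K h2 h1 n1)))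

/-- The local data of a critical walk from a neighbour of `β` to `γ`. -/
structure Cfg (p : ℕ) (P : Subgroup G → Prop) (β κ γ μ : Subgroup G) : Prop where
  bk : PP p P β κ
  gm : PP p P γ μ
  h1 : ∀ δ, PP p P β δ → zz p δ ≤ pCoreOf p μ ∧ zz p μ ≤ pCoreOf p δ
  h2 : ∀ δ, PP p P γ δ → zz p δ ≤ pCoreOf p κ ∧ zz p κ ≤ pCoreOf p δ

theorem Cfg.symm {β κ γ μ : Subgroup G} (h : Cfg p P β κ γ μ) : Cfg p P γ μ β κ :=
  ⟨h.gm, h.bk, h.h2, h.h1⟩

theorem Cfg.cj {β κ γ μ : Subgroup G} (h : Cfg p P β κ γ μ) (g : G) :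
    Cfg p P (cj g β) (cj g κ) (cj g γ) (cj g μ) := by
  have key : ∀ {β μ : Subgroup G},
      (∀ δ, PP p P β δ → zz p δ ≤ pCoreOf p μ ∧ zz p μ ≤ pCoreOf p δ) → ∀ δ, PP p P (H70.cj g β) δ →
      zz p δ ≤ pCoreOf p (H70.cj g μ) ∧ zz p (H70.cj g μ) ≤ pCoreOf p δ := fun {β μ} a δ b => by
    have := a (H70.cj g⁻¹ δ) (by simpa only [cj_inv_cj] using b.cj g⁻¹)
    rw [← cj_le_cj_iff g, ← cj_le_cj_iff g (H := zz p μ)] at this
    simpa only [cj_YL, cj_pCoreOf, cj_cj_inv] using this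
  exact ⟨h.bk.cj g, h.gm.cj g, key h.h1, key h.h2⟩

theorem Cfg.v_le {β κ γ μ : Subgroup G} (h : Cfg p P β κ γ μ) : vv p P β ≤ pCoreOf p μ :=
  vv_le fun δ a => (h.h1 δ a).1

theorem Cfg.v_le' {β κ γ μ : Subgroup G} (h : Cfg p P β κ γ μ) : vv p P β ≤ γ :=
  h.v_le.trans h.gm.q2

theorem PP.exists_cfg {X Y : Subgroup G} (h : PP p P X Y)
    (h1 : ∀ U V, PP p P U V → zz p U ≤ pCoreOf p V) :
    ∃ β κ γ μ, Cfg p P β κ γ μ ∧ ¬ vv p P β ≤ pCoreOf p γ := by
  classical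
  have hb := h.exists_bad
  obtain ⟨α, γ, hw, hn⟩ := Nat.find_spec hb
  have hmin : ∀ m < Nat.find hb, ∀ U V, Wk p P m U V → zz p U ≤ pCoreOf p V := fun m hm U V a => by
    by_contra b
    exact Nat.find_min hb hm ⟨U, V, a, b⟩
  generalize Nat.find hb = b at hw hmin
  rcases b with _ | _ | c
  · exact absurd (hw.eq ▸ zz_le_q α) hn
  · obtain ⟨β, a, b⟩ := hw.uncons
    exact absurd (b.eq ▸ h1 _ _ a) hn
  obtain ⟨β, a, b⟩ := hw.uncons
  obtain ⟨κ, a1, b1⟩ := b.uncons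
  obtain ⟨μ, a2, b2⟩ := b.symm.uncons
  refine ⟨β, κ, γ, μ, ⟨a1, a2, fun δ d => ?_, fun δ d => ?_⟩, fun e => hn ((le_vv a.symm).trans e)⟩
  · exact ⟨hmin _ (by omega) _ _ (b2.snoc d).symm, hmin _ (by omega) _ _ (b2.snoc d)⟩
  · exact ⟨hmin _ (by omega) _ _ (b1.snoc d).symm, hmin _ (by omega) _ _ (b1.snoc d)⟩

theorem vv_elem (h1 : ∀ U V, PP p P U V → zz p U ≤ pCoreOf p V)
    (h2 : ∀ U V : Subgroup G, P V → zz p U ≤ V → zz p V ≤ U → P U →
      zz p U ≤ centralizer (zz p V : Set G)) (X : Subgroup G) :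
    IsElementaryAbelian p (vv p P X) :=
  IsElem_iSup (fun _ => zz_elem _) fun U V => h2 _ _ V.2.symm.good
    ((h1 _ _ U.2.symm).trans V.2.q1) ((h1 _ _ V.2.symm).trans U.2.q1) U.2.symm.good

theorem quad_of_norm {V A : Subgroup G} (hA : A ≤ centralizer (A : Set G))
    (h : V ≤ normalizer (A : Set G)) : ⁅⁅V, A⁆, A⁆ = ⊥ :=
  comm_eq_bot_iff.2 ((commutator_le_right_of_norm h).trans hA)

theorem stab_amb {M V A : Subgroup G} (h : H21.QuadStable p M) (hV : V ≤ M)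
    (hn : M ≤ normalizer (V : Set G)) (hP : IsPGroup p V) (hA : A ≤ M) (hq : ⁅⁅V, A⁆, A⁆ = ⊥) :
    ∃ D ≤ M, M ≤ normalizer (D : Set G) ∧ pResidualOf p D ≤ centralizer (V : Set G) ∧ A ≤ D := by
  haveI := normal_subgroupOf_of_le_normalizer hn
  set f := QuotientGroup.mk' (centralizer ((V.subgroupOf M : Subgroup M) : Set M)) with hf
  refine ⟨((pCore p _).comap f).map M.subtype, map_subtype_le _, le_norm_map_subtype _, ?_,
    fun a ha => ⟨⟨a, hA ha⟩, h.isPStableOn_of_isPGroup (V.subgroupOf M) (isPGroup_subgroupOf hP)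
      ⟨a, hA ha⟩ ?_, rfl⟩⟩
  · have h1 : IsPGroup p (((pCore p _).comap f).map f) :=
      pCore_isPGroup.to_le (map_comap_le _ _)
    rw [isPGroup_map_iff, QuotientGroup.ker_mk', ← map_subtype_le_map_subtype_iff,
      map_subtype_pRes, map_subtype_centralizer, map_subtype_subgroupOf hV] at h1
    exact h1.trans inf_le_right
  · rw [← map_subtype_eq_bot_iff, map_commutator, map_commutator, map_subtype_subgroupOf hV,
      MonoidHom.map_zpowers]
    exact le_bot_iff.1 (hq ▸ commutator_mono (commutator_mono le_rfl (zpowers_le.2 ha))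
      (zpowers_le.2 ha))

theorem PP.not_stable {X Y : Subgroup G} (h : PP p P X Y)
    (hP : ∀ U : Subgroup G, P U → H21.QuadStable p U) : False := by
  have h1 : ∀ U V, PP p P U V → zz p U ≤ pCoreOf p V := fun U V a => by
    obtain ⟨D, d1, d2, d3, d4⟩ := stab_amb (hP V a.symm.good) (pCoreOf_le V) (le_norm_pCoreOf V)
      (pCoreOf_isPGroup V) ((zz_le_q U).trans a.q1)
      (quad_of_norm (IsElem_le_cent (zz_elem U)) (a.q2.trans (zz_norm U)))
    exact d4.trans (le_pCoreOf d1 d2 (a.c2.isPGroup_of_pRes_le_cent d1 d3))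
  have hE := vv_elem (P := P) h1 fun U V a b c _ => by
    obtain ⟨D, d1, d2, d3, d4⟩ := stab_amb (hP V a) (YL_pRed V).le (zz_norm V) (YL_pRed V).isPGroup
      b (quad_of_norm (IsElem_le_cent (zz_elem U)) (c.trans (zz_norm U)))
    exact d4.trans ((YL_pRed V).red D d1 d2 d3)
  obtain ⟨β, κ, γ, μ, hc, hn⟩ := h.exists_cfg h1
  obtain ⟨D, d1, d2, d3, d4⟩ := stab_amb (hP γ hc.gm.good)
    ((vv_le fun δ a => h1 _ _ a.symm).trans (pCoreOf_le γ)) (vv_norm γ)
    (IsElementaryAbelian_isPGroup (hE γ)) hc.v_le'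
    (quad_of_norm (IsElem_le_cent (hE β)) (hc.symm.v_le'.trans (vv_norm β)))
  have h2 : pResidualOf p D ≤ D ⊓ μ := le_inf (pRes_le D) (le_trans (le_inf ((pRes_le D).trans d1)
    (d3.trans (cent_anti (le_vv hc.gm)))) hc.gm.cent_le)
  have h3 : Subn (pCoreOf p μ ⊓ D) γ := Subn.step (le_inf inf_le_right
    (inf_le_left.trans (pCoreOf_le μ))) (norm_inf (inf_le_right.trans (le_norm_pCoreOf μ))
    (norm_of_le inf_le_left)) ((subn_of_pRes_le h2 inf_le_left).trans (Subn.of_norm d1 d2))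
  exact hn ((le_inf hc.v_le d4).trans (h3.le_pCoreOf (pCoreOf_isPGroup μ).to_inf_left))

theorem pp_of {M₁ M₂ : Subgroup G} (hne : M₁ ≠ M₂)
    (hP : ∀ A : Subgroup G, A ≠ ⊥ → A ≤ M₁ ⊓ M₂ →
      (M₁ ≤ normalizer (A : Set G) → M₂ ⊓ normalizer (A : Set G) = M₁ ⊓ M₂) ∧
      (M₂ ≤ normalizer (A : Set G) → M₁ ⊓ normalizer (A : Set G) = M₁ ⊓ M₂))
    (hc₁ : centralizer (pCore p M₁ : Set M₁) ≤ pCore p M₁)
    (hc₂ : centralizer (pCore p M₂ : Set M₂) ≤ pCore p M₂)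
    (hO : (pCore p M₁).map M₁.subtype ⊔ (pCore p M₂).map M₂.subtype ≤ M₁ ⊓ M₂)
    (g1 : ∀ g, P (cj g M₁)) (g2 : ∀ g, P (cj g M₂)) : PP p P M₁ M₂ :=
  ⟨hne, fun A a b c => ((hP A a b).1 c).le.trans inf_le_left,
    fun A a b c => ((hP A a b).2 c).le.trans inf_le_right, isChar_iff.2 hc₁, isChar_iff.2 hc₂,
    le_sup_left.trans (hO.trans inf_le_right), le_sup_right.trans (hO.trans inf_le_left), g1, g2⟩

end Cfsg.Agent.H4
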