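import Cfsg.Agent.H4.PP1

/-! There is no primitive pair of characteristic `2` of soluble `S₃`-free groups. -/

set_option autoImplicit false
set_option linter.unusedSectionVars false

namespace Cfsg.Agent.H4

open Subgroup Cfsg.Agent.H70 Cfsg.Agent.H92
open scoped commutatorElement

variable {G : Type*} [Group G] [Finite G] {P : Subgroup G → Prop}

theorem ix_eq_one {X Y : Subgroup G} : ix X Y = 1 ↔ X ≤ centralizer (Y : Set G) := relIndex_eq_one

theorem ix_cj' {g : G} {X : Subgroup G} (h : g ∈ normalizer (X : Set G)) (Y : Subgroup G) :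
    ix X (cj g Y) = ix X Y := by
  conv_lhs => rw [← cj_eq_self h, ix_cj]

theorem eq_sup_of_ix {X Y Z : Subgroup G} (h : Z ≤ X) (e : ix X Y ≤ ix Z Y) : X ≤ Z ⊔ X ⊓ centralizer (Y : Set G) := by
  have h1 : Z ⊔ X ⊓ centralizer (Y : Set G) ≤ X := sup_le h inf_le_left
  have h2 := ix_eq_mul h1 (Y := Y) le_sup_right
  have h3 := ix_mono (le_sup_left : Z ≤ Z ⊔ X ⊓ centralizer (Y : Set G)) (le_refl Y)
  have h4 := ix_pos X Y
  have h5 := H21.relIndex_ne_zero' (Z ⊔ X ⊓ centralizer (Y : Set G)) X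
  rw [← relIndex_eq_one]
  by_contra a
  nlinarith [(by omega : 2 ≤ (Z ⊔ X ⊓ centralizer (Y : Set G)).relIndex X)]

theorem sq_mem_cent {A R : Subgroup G} (hE : IsElementaryAbelian 2 A)
    (hn : R ≤ normalizer (A : Set G)) (h : ⁅A, R⁆ ≤ centralizer (R : Set G)) :
    ∀ r ∈ R, r * r ∈ centralizer (A : Set G) := fun r hr a ha => by
  have h1 := h (commutator_mem_commutator ha hr) r hr
  have h2 := hE.2 _ (commutator_le_left_of_norm hn (commutator_mem_commutator ha hr))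
  have h3 : a * r = ⁅a, r⁆ * (r * a) := by group
  rw [← mul_assoc, h3, mul_assoc, mul_assoc, h3, ← mul_assoc r, h1, mul_assoc, ← mul_assoc,
    ← pow_two, h2, one_mul, mul_assoc]

theorem sq_sq_one {a b : ℕ} (h1 : a ^ 2 ≤ b * 2) (h2 : b ^ 2 ≤ a) : a ≤ 1 := by
  by_contra c
  have : 2 ≤ b := by nlinarith
  nlinarith

theorem sq_sq_two {a b : ℕ} (h1 : a ^ 2 ≤ b * 2) (h2 : b ^ 2 ≤ a * 2) : a ≤ 2 := by
  by_contra c
  have : 5 ≤ b := by nlinarith
  nlinarith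

theorem sq_mem_of_elem {A N : Subgroup G} (h : IsElementaryAbelian 2 A) :
    ∀ a ∈ A, a * a ∈ N := fun a ha => by
  rw [← pow_two, h.2 a ha]; exact one_mem _

theorem LL.le_sup {p : ℕ} {C A A₀ : Subgroup G} {x : G} (h : LL p C A A₀ x) :
    A₀ ≤ C ⊔ H70.cj x A₀ := fun a ha => by
  have := mul_mem (mem_sup_left (T := H70.cj x A₀) (h.cent (commutator_mem_commutator ha
    (pRes_le _ h.mem)))) (mem_sup_right (S := C) (conj_mem_cj x ha))
  rwa [show ⁅a, x⁆ * (x * a * x⁻¹) = a by group] at this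

theorem LL.le_of {C A A₀ N : Subgroup G} {x a : G} (h : LL 2 C A A₀ x) (h0 : A₀ ≤ N) (ha : a ∈ A)
    (hn : a ∉ A₀) (hN : a ∈ N) : A ≤ N :=
  (eq_or_eq_of_relIndex_prime Nat.prime_two h.idx (le_inf h.le h0) inf_le_left).elim
    (fun e => absurd (e.le ⟨ha, hN⟩) hn) fun e => e.ge.trans inf_le_right

/-- A two-generator configuration at the vertex `γ`. -/
structure Loc (P : Subgroup G → Prop) (γ μ A A₀ : Subgroup G) (x : G) : Prop where
  pp : PP 2 P γ μ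
  le : A ≤ pCoreOf 2 μ
  mem : x ∈ γ
  ll : LL 2 (pCoreOf 2 γ) A A₀ x

namespace Loc

variable {γ μ A A₀ : Subgroup G} {x : G}

theorem pp' (h : Loc P γ μ A A₀ x) : PP 2 P γ (cj x μ) := h.pp.cj_of_mem h.mem

theorem symm (h : Loc P γ μ A A₀ x) : Loc P γ (cj x μ) (cj x A) (cj x A₀) x⁻¹ :=
  ⟨h.pp', cj_pCoreOf (p := 2) x μ ▸ cj_mono x h.le, inv_mem h.mem,
    h.ll.symm (le_norm_pCoreOf γ h.mem)⟩

theorem cj (h : Loc P γ μ A A₀ x) (g : G) :
    Loc P (cj g γ) (cj g μ) (cj g A) (cj g A₀) (g * x * g⁻¹) :=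
  ⟨h.pp.cj g, cj_pCoreOf (p := 2) g μ ▸ cj_mono g h.le, conj_mem_cj g h.mem,
    cj_pCoreOf (p := 2) g γ ▸ h.ll.cj g⟩

theorem a_le (h : Loc P γ μ A A₀ x) : A ≤ γ := h.le.trans h.pp.q2

theorem l_le (h : Loc P γ μ A A₀ x) : A ⊔ H70.cj x A ≤ γ := sup_le h.a_le h.symm.a_le

theorem not_le (h : Loc P γ μ A A₀ x) : ¬ pResidualOf 2 (A ⊔ H70.cj x A) ≤ μ := fun a => by
  have h1 : pResidualOf 2 (A ⊔ H70.cj x A) ≤ pCoreOf 2 μ := h.ll.comm.ge.trans
    ((commutator_mono a h.le).trans (commutator_le_right_of_norm (le_norm_pCoreOf μ)))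
  exact h.ll.nle ((pRes_pRes _).ge.trans (pRes_le_of_isPGroup ((pCoreOf_isPGroup μ).to_le h1)))

theorem not_le' (h : Loc P γ μ A A₀ x) : ¬ pResidualOf 2 (A ⊔ H70.cj x A) ≤ H70.cj x μ := by
  have := h.symm.not_le
  rwa [cj_inv_cj, sup_comm] at this

theorem a0_le (h : Loc P γ μ A A₀ x) : A₀ ≤ H70.cj x μ :=
  h.ll.le_sup.trans (sup_le h.pp'.q1 (h.symm.ll.le.trans (h.symm.le.trans (pCoreOf_le _))))

theorem inf_le (h : Loc P γ μ A A₀ x) : A ⊓ H70.cj x μ ≤ A₀ := fun a ha => by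
  by_contra b
  exact h.not_le' ((pRes_le _).trans (sup_le (h.ll.le_of h.a0_le ha.1 b ha.2)
    (h.symm.le.trans (pCoreOf_le _))))

theorem cent_le (h : Loc P γ μ A A₀ x) :
    A ⊓ centralizer (zz 2 (H70.cj x μ) : Set G) ≤ A₀ :=
  (le_inf inf_le_left ((inf_le_inf_right _ h.a_le).trans h.pp'.cent_le)).trans h.inf_le

theorem ix_eq (h : Loc P γ μ A A₀ x) :
    ix A (zz 2 (H70.cj x μ)) = ix A₀ (zz 2 (H70.cj x μ)) * 2 := by
  rw [ix_eq_mul h.ll.le h.cent_le, h.ll.idx]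

theorem ix_le (h : Loc P γ μ A A₀ x) (hE : IsElementaryAbelian 2 A)
    (hc : A ≤ centralizer (zz 2 μ : Set G)) {Z : Subgroup G} (h1 : Z ≤ A) (h2 : ¬ Z ≤ A₀) :
    ix (zz 2 (H70.cj x μ)) A ≤ ix (zz 2 (H70.cj x μ)) Z := by
  obtain ⟨a, ha, hn⟩ := SetLike.not_le_iff_exists.1 h2
  set Y := zz 2 (H70.cj x μ) with hY
  have hc' : H70.cj x A ≤ centralizer (Y : Set G) := by
    rw [hY, zz, ← cj_YL, ← cj_centralizer]; exact cj_mono x hc
  have hc2 : H70.cj x A ≤ centralizer ((Y ⊓ H70.cj a Y : Subgroup G) : Set G) :=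
    hc'.trans (cent_anti inf_le_left)
  have n0 : A₀ ≤ normalizer (Y : Set G) := h.a0_le.trans (zz_norm _)
  have n1 : A ≤ normalizer ((Y ⊓ H70.cj a Y : Subgroup G) : Set G) := by
    refine h.ll.le_of (norm_inf n0 ?_) (h1 ha) hn ?_
    · rw [← cj_normalizer, le_cj_iff]
      refine le_trans (le_of_eq (cj_eq_self (norm_of_cent ((IsElem_le_cent hE).trans
        (cent_anti h.ll.le)) (inv_mem (h1 ha))))) n0
    · rw [← cj_eq_self_iff, cj_inf, ← cj_mul, ← pow_two, hE.2 a (h1 ha), cj_one, inf_comm]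
  have n2 := norm_centralizer (sup_le n1 (norm_of_cent hc2)) (pRes_le _ h.ll.mem)
  have h3 : A ≤ centralizer ((Y ⊓ H70.cj a Y : Subgroup G) : Set G) := by
    rw [← cj_eq_self n2, cj_le_cj_iff] at hc2
    exact hc2
  refine ix_le_of (le_trans (le_inf inf_le_left fun y hy => mem_cj.2 ?_) (cent_comm.1 h3))
  rw [mul_assoc, ← hy.2 a ha, inv_mul_cancel_left]
  exact hy.1

end Loc

section SF

variable (hP : ∀ U : Subgroup G, P U →
  Group.IsSolvable U ∧ ¬ Involves (Equiv.Perm (Fin 3)) U)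

include hP

theorem ff {δ A : Subgroup G} (h : P δ) (hA : A ≤ δ) (hE : IsElementaryAbelian 2 A) :
    ix A (zz 2 δ) ^ 2 ≤ ix (zz 2 δ) A :=
  PRed.ix_sq_le (YL_pRed δ) (hP δ h).1 (hP δ h).2 hA (sq_mem_of_elem hE)

theorem zz_comm (U V : Subgroup G) (hV : P V) (h1 : zz 2 U ≤ V) (h2 : zz 2 V ≤ U) (hU : P U) :
    zz 2 U ≤ centralizer (zz 2 V : Set G) := by
  have a := ff hP hV h1 (zz_elem U)
  have b := ff hP hU h2 (zz_elem V)
  exact ix_eq_one.1 (le_antisymm (sq_sq_one (by omega) b) (ix_pos _ _))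

theorem exists_loc {γ μ A : Subgroup G} (h : PP 2 P γ μ) (hA : A ≤ pCoreOf 2 μ)
    (hE : IsElementaryAbelian 2 A) (hne : ¬ A ≤ pCoreOf 2 γ) : ∃ A₀ x, Loc P γ μ A A₀ x := by
  haveI := normal_subgroupOf_of_le_normalizer (le_norm_pCoreOf (p := 2) γ)
  obtain ⟨A₀, x, hx, a⟩ := exists_ll_amb (p := 2) (Red.cent_le (C := pCoreOf 2 γ)
    (fun D d1 d2 d3 => le_pCoreOf d1 d2 (isPGroup_of_pRes_le d3 (pCoreOf_isPGroup γ)))
    (hP γ h.good).1) (hA.trans h.q2) (IsElementaryAbelian_isPGroup hE)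
    ((comm_eq_bot_iff.2 (IsElem_le_cent hE)).le.trans bot_le)
    (fun a ha => (hE.2 a ha).symm ▸ one_mem _) hne
  exact ⟨A₀, x, h, hA, hx, inf_eq_right.2 (pCoreOf_le (p := 2) γ) ▸ a⟩

theorem z_le_q {β α : Subgroup G} (h : PP 2 P α β) : zz 2 α ≤ pCoreOf 2 β := by
  by_contra hne
  obtain ⟨A₀, x, l⟩ := exists_loc hP h.symm (zz_le_q α) (zz_elem α) hne
  have l' := l.symm
  have e : cj x (zz 2 α) = zz 2 (cj x α) := cj_YL x α
  have eA := IsElem_le_cent (zz_elem (p := 2) α)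
  have eB := IsElem_le_cent (zz_elem (p := 2) (cj x α))
  have hB : cj x A₀ ≤ α := by simpa only [cj_inv_cj] using l'.a0_le
  have hB' : cj x A₀ ≤ zz 2 (cj x α) := e ▸ l'.ll.le
  have i1 := ff hP l.pp'.symm.good l.a0_le (IsElem_of_le (zz_elem α) l.ll.le)
  have i2 := ff hP h.good hB (IsElem_of_le (zz_elem _) hB')
  have c1 : zz 2 α ⊓ pCoreOf 2 β ≤ A₀ := l.ll.inf
  have c2 : zz 2 (cj x α) ⊓ pCoreOf 2 β ≤ cj x A₀ := e ▸ l'.ll.inf
  have j1 : ix (zz 2 (cj x α)) A₀ ≤ ix (cj x A₀) (zz 2 α) * 2 := by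
    refine (ix_mono le_rfl l.ll.le).trans (le_of_eq ?_)
    simpa only [cj_inv_cj, e] using l'.ix_eq
  have j2 : ix (zz 2 α) (cj x A₀) ≤ ix A₀ (zz 2 (cj x α)) * 2 :=
    (ix_mono le_rfl hB').trans l.ix_eq.le
  have k1 := sq_sq_two (i1.trans j1) (i2.trans j2)
  have k2 := sq_sq_two (i2.trans j2) (i1.trans j1)
  have m1 : ⁅A₀, zz 2 (cj x α)⁆ ≤ cj x A₀ := le_trans (le_inf
    (commutator_le_right_of_norm (l.a0_le.trans (zz_norm _)))
    ((commutator_mono le_rfl (e ▸ le_sup_right)).trans l.ll.cent)) c2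
  have m2 : ⁅cj x A₀, zz 2 α⁆ ≤ A₀ := le_trans (le_inf
    (commutator_le_right_of_norm (hB.trans (zz_norm _)))
    ((commutator_mono le_rfl (by rw [cj_inv_cj]; exact le_sup_right)).trans l'.ll.cent)) c1
  have n0 : A₀ ≤ normalizer (cj x A₀ : Set G) :=
    norm_of_commutator_le ((commutator_comm _ _).le.trans ((commutator_mono le_rfl hB').trans m1))
  have n1 : zz 2 α ≤ normalizer ((A₀ ⊔ cj x A₀ : Subgroup G) : Set G) :=
    norm_of_commutator_le (comm_sup_le (norm_of_le le_sup_left) (norm_of_le le_sup_right)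
      ((comm_eq_bot_iff.2 (l.ll.le.trans eA)).le.trans bot_le) (m2.trans le_sup_left))
  have n2 : cj x (zz 2 α) ≤ normalizer ((A₀ ⊔ cj x A₀ : Subgroup G) : Set G) :=
    e ▸ norm_of_commutator_le (comm_sup_le (norm_of_le le_sup_left) (norm_of_le le_sup_right)
      (m1.trans le_sup_right) ((comm_eq_bot_iff.2 (hB'.trans eB)).le.trans bot_le))
  have pA : IsPGroup 2 A₀ := (IsElementaryAbelian_isPGroup (zz_elem α)).to_le l.ll.le
  have pU := isPGroup_sup_of_norm pA (isPGroup_cj x pA) n0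
  set L := zz 2 α ⊔ cj x (zz 2 α) with hL
  have hx : x ∈ L := pRes_le _ l.ll.mem
  have hUL : A₀ ⊔ cj x A₀ ≤ L := sup_le_sup l.ll.le l'.ll.le
  have hD : A₀ ⊓ centralizer (zz 2 (cj x α) : Set G) ≤ cj x A₀ := fun a ha => by
    have : a ∈ centralizer (L : Set G) := by
      rw [hL, cent_sup, e]; exact ⟨eA (l.ll.le ha.1), ha.2⟩
    rw [mem_cj, mul_assoc, ← this x hx, inv_mul_cancel_left]
    exact ha.1
  have h4 : (cj x A₀ ⊓ centralizer (L : Set G)).relIndex (A₀ ⊔ cj x A₀) ≤ 4 := by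
    rw [← relIndex_mul_relIndex _ _ _ inf_le_left le_sup_right, inf_relIndex_left, sup_comm,
      H21.relIndex_sup_of_le_normalizer n0]
    refine Nat.mul_le_mul (le_trans (ix_le_of ?_) k2) (le_trans ?_ k1)
    · rw [hL, cent_sup, e]
      exact le_inf inf_le_right (inf_le_left.trans (hB'.trans eB))
    · rw [ix, ← inf_relIndex_left A₀ (centralizer _)]
      exact relIndex_le_of_le_left hD (H21.relIndex_ne_zero' _ _)
  have h5 := l.ll.le_cent (not_involves_mono l.l_le (hP β l.pp.good).2)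
    (isPGroup_cj x pA).to_inf_left (inf_le_left.trans le_sup_right)
    (norm_of_cent (hUL.trans (cent_comm.1 inf_le_right))) (sup_le n1 n2)
    (cent_comm.1 inf_le_right) h4
  have h6 : ⁅pCoreOf 2 β, L⁆ ≤ A₀ ⊔ cj x A₀ := comm_sup_le' n1 n2
    (le_trans (le_inf (commutator_le_right_of_norm (l.pp.q1.trans (zz_norm _)))
      (commutator_le_left_of_norm (l.a_le.trans (le_norm_pCoreOf β)))) (c1.trans le_sup_left))
    (le_trans (le_inf (commutator_le_right_of_norm (e ▸ l.pp'.q1.trans (zz_norm _)))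
      (commutator_le_left_of_norm (l'.a_le.trans (le_norm_pCoreOf β))))
      (l'.ll.inf.trans le_sup_right))
  refine l.ll.nle (le_trans (le_inf ((pRes_le _).trans l.l_le) ?_) l.pp.c1)
  rw [← pRes_pRes]
  exact pRes_le_cent_of_step pU ((commutator_mono le_rfl (pRes_le _)).trans h6) h5

theorem vv_el (X : Subgroup G) : IsElementaryAbelian 2 (vv 2 P X) :=
  vv_elem (fun _ _ h => z_le_q hP h) (zz_comm hP) X

theorem cfg_cent {β κ γ μ : Subgroup G} (c : Cfg 2 P β κ γ μ) :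
    vv 2 P β ≤ centralizer (zz 2 μ : Set G) :=
  vv_le fun δ d => zz_comm hP δ μ c.gm.symm.good ((c.h1 δ d).1.trans (pCoreOf_le _))
    ((c.h1 δ d).2.trans (pCoreOf_le _)) d.symm.good

theorem cfg_not_le {β κ γ μ A₀ : Subgroup G} {x : G} (c : Cfg 2 P β κ γ μ)
    (l : Loc P γ μ (vv 2 P β) A₀ x) : ¬ zz 2 (cj x μ) ≤ pCoreOf 2 β := fun a => by
  obtain ⟨δ, d, hd⟩ : ∃ δ, PP 2 P β δ ∧ ¬ zz 2 δ ≤ A₀ := by
    by_contra b
    push Not at b
    have := l.ll.idx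
    rw [relIndex_eq_one.2 (vv_le b)] at this
    omega
  have i1 := ff hP l.pp'.symm.good l.a0_le (IsElem_of_le (vv_el hP β) l.ll.le)
  have i2 := ff hP d.symm.good (a.trans d.q1) (zz_elem _)
  have i3 := l.ix_le (vv_el hP β) (cfg_cent hP c) (le_vv d) hd
  have i4 := l.ix_eq
  have i5 := sq_sq_one (((Nat.pow_le_pow_left i3 2).trans i2).trans
    ((ix_mono (le_vv d) le_rfl).trans i4.le)) (i1.trans (ix_mono le_rfl l.ll.le))
  rw [ix_eq_one.2 (cent_comm.1 (ix_eq_one.1 (le_antisymm i5 (ix_pos _ _))))] at i4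
  omega

theorem cfg_ix {β κ γ μ A₀ B B₀ : Subgroup G} {x y : G} (c : Cfg 2 P β κ γ μ)
    (l : Loc P γ μ (vv 2 P β) A₀ x) (hB : zz 2 (cj x μ) = B) (m : Loc P β κ B B₀ y) :
    ix (vv 2 P β) B = 4 ∧ ix B₀ (zz 2 (cj y κ)) = 2 ∧ ix (zz 2 (cj y κ)) B = 4 := by
  subst hB
  have hE := vv_el hP β
  have i1 := (ff hP l.pp'.symm.good l.a0_le (IsElem_of_le hE l.ll.le)).trans
    (ix_mono le_rfl l.ll.le)
  have i2 := (ff hP m.pp'.symm.good m.a0_le (IsElem_of_le (zz_elem _) m.ll.le)).trans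
    (ix_mono le_rfl m.ll.le)
  have i3 : ix (zz 2 (cj y κ)) (zz 2 (cj x μ)) ≤ _ := ix_mono (le_vv m.pp') le_rfl
  have i4 := l.ix_eq
  have i5 := m.ix_eq
  have hd : ¬ zz 2 (cj y κ) ≤ A₀ := fun a => by
    have j := sq_sq_one ((ff hP l.pp'.symm.good (a.trans l.a0_le) (zz_elem _)).trans i5.le) i2
    rw [ix_eq_one.2 (cent_comm.1 (ix_eq_one.1 (le_antisymm j (ix_pos _ _))))] at i5
    omega
  have i6 := (i1.trans (l.ix_le hE (cfg_cent hP c) (le_vv m.pp') hd)).trans i5.le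
  have i7 := (i2.trans i3).trans i4.le
  have k1 := sq_sq_two i6 i7
  have k2 := sq_sq_two i7 i6
  have k3 : ix A₀ (zz 2 (cj x μ)) ≠ 1 := fun a => by
    have n1 : zz 2 (cj x μ) ⊔ cj y (zz 2 (cj x μ)) ≤ normalizer (vv 2 P β : Set G) :=
      m.l_le.trans (vv_norm β)
    have := m.ll.le_cent (not_involves_mono m.l_le (hP β m.pp.good).2)
      (IsElementaryAbelian_isPGroup hE).to_inf_left inf_le_left
      (norm_of_cent ((IsElem_le_cent hE).trans (cent_anti inf_le_left))) n1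
      (cent_comm.1 inf_le_right) (by
        rw [inf_relIndex_left]
        refine (ix_sup_le _ _ _).trans ?_
        rw [ix_cj' (vv_norm β m.mem), i4, a])
    exact m.not_le ((le_inf ((pRes_le _).trans m.l_le)
      (this.trans (cent_anti (le_vv m.pp)))).trans m.pp.cent_le)
  have k4 := ix_pos A₀ (zz 2 (cj x μ))
  have k5 : ix A₀ (zz 2 (cj x μ)) = 2 := by omega
  rw [k5] at i4 i6
  have k6 : ix B₀ (zz 2 (cj y κ)) = 2 := by omega
  rw [k6] at i2
  omega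

theorem PP.not_sf {M₁ M₂ : Subgroup G} (h : PP 2 P M₁ M₂) : False := by
  obtain ⟨β, κ, γ, μ, c, hn⟩ := h.exists_cfg fun _ _ a => z_le_q hP a
  have hE := vv_el hP β
  obtain ⟨A₀, x, l⟩ := exists_loc hP c.gm c.v_le hE hn
  obtain ⟨B₀, y, m⟩ := exists_loc hP c.bk (c.h2 _ l.pp').1 (zz_elem _) (cfg_not_le hP c l)
  obtain ⟨i1, i2, i3⟩ := cfg_ix hP c l rfl m
  have ey := cj_eq_self (vv_norm (p := 2) (P := P) β m.mem)
  have c' := c.cj y
  have l' := l.cj y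
  rw [cj_eq_self_of_mem m.mem] at c'
  rw [ey] at l'
  obtain ⟨j1, -, j3⟩ := cfg_ix hP c' l' (by
    rw [zz, cj_YL, ← cj_mul, ← cj_mul, inv_mul_cancel_right]) m.symm
  rw [cj_inv_cj] at j3
  have b1 : zz 2 κ ≤ centralizer (zz 2 (H70.cj x μ) : Set G) :=
    cent_comm.1 ((le_vv l.pp').trans (cfg_cent hP c.symm))
  have b2 : zz 2 (H70.cj y κ) ≤ centralizer (H70.cj y (zz 2 (H70.cj x μ)) : Set G) := by
    rw [← cj_centralizer, zz, ← cj_YL]; exact cj_mono y b1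
  have b3 : ⁅vv 2 P β, zz 2 (H70.cj x μ)⁆ ≤ centralizer (zz 2 (H70.cj x μ) : Set G) :=
    (commutator_mono (c.v_le'.trans (vv_norm γ)) (le_vv l.pp')).trans
      ((commutator_mono le_rfl le_rfl).trans (le_trans (commutator_le_right_of_norm le_rfl)
      ((IsElem_le_cent (vv_el hP γ)).trans (cent_anti (le_vv l.pp')))))
  have a1 : zz 2 κ ≤ vv 2 P β := le_vv m.pp
  have a2 : zz 2 (H70.cj y κ) ≤ vv 2 P β := le_vv m.pp'
  have nA := m.l_le.trans (vv_norm (p := 2) (P := P) β)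
  have aa := IsElem_le_cent hE
  generalize vv 2 P β = A at *
  generalize zz 2 (H70.cj x μ) = B at *
  set L := B ⊔ H70.cj y B with hL
  set C := A ⊓ centralizer (L : Set G) with hC
  have nC : L ≤ normalizer (C : Set G) := norm_of_cent (cent_comm.1 inf_le_right)
  have nC' : A ≤ normalizer (C : Set G) := norm_of_cent (aa.trans (cent_anti inf_le_left))
  have e1 : A ≤ zz 2 (H70.cj y κ) ⊔ (zz 2 κ ⊔ C) := by
    refine (eq_sup_of_ix a2 (i1.trans i3.symm).le).trans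
      (sup_le_sup_left ?_ _)
    refine (eq_sup_of_ix (Y := H70.cj y B) (le_inf a1 b1)
      ((ix_mono inf_le_left le_rfl).trans (j1.trans j3.symm).le)).trans
      (sup_le_sup_left ?_ _)
    rw [hC, hL, cent_sup, inf_assoc]
  have hB₀ : B₀ ≤ L := m.ll.le.trans le_sup_left
  have e2 : ⁅A, B₀⁆ ≤ C := by
    refine (commutator_mono e1 le_rfl).trans (comm_sup_le (a2.trans nC')
      ((sup_le a1 inf_le_left).trans nC') ?_ ((comm_eq_bot_iff.2 (sup_le
        (b1.trans (cent_anti m.ll.le)) (inf_le_right.trans (cent_anti hB₀)))).le.trans bot_le))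
    have := commutator_le_left_of_norm (m.a0_le.trans (zz_norm (p := 2) _))
    rw [hC, hL, cent_sup]
    exact le_inf (this.trans a2) (le_inf ((commutator_mono a2 m.ll.le).trans b3) (this.trans b2))
  have r1 : ncl B₀ L ≤ L := ncl_le_of_le hB₀
  have r2 : ∀ {N : Subgroup G}, B₀ ≤ N → pCoreOf 2 β ≤ N → ncl B₀ L ≤ N := fun a b =>
    (ncl_eq_sup_comm _ _).le.trans (sup_le a (m.ll.cent.trans b))
  have r3 : ⁅A, ncl B₀ L⁆ ≤ C := commutator_comm _ A ▸
    comm_ncl_le nA nC (hB₀.trans nC) (commutator_comm A _ ▸ e2)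
  have r4 := sq_mem_cent hE (r1.trans nA) (r3.trans (inf_le_right.trans (cent_anti r1)))
  have r5 : ∀ {δ B' : Subgroup G}, P δ → ncl B₀ L ≤ δ → zz 2 δ ≤ A → ix (zz 2 δ) B' = 4 →
      zz 2 δ ⊓ centralizer (B' : Set G) ≤ centralizer (L : Set G) →
      ix (ncl B₀ L) (zz 2 δ) ≤ 2 := fun {δ B'} a b d e f => by
    have := (PRed.ix_sq_le (YL_pRed δ) (hP δ a).1 (hP δ a).2 b
      fun r hr => cent_anti d (r4 r hr)).trans ((ix_le_of (f.trans (cent_anti r1))).trans e.le)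
    nlinarith
  have r6 := r5 m.pp'.symm.good (r2 m.a0_le m.pp'.q1) a2 i3 (by
    rw [hL, cent_sup]; exact le_inf inf_le_right (inf_le_left.trans b2))
  have r7 := r5 m.pp.symm.good (r2 (m.ll.le.trans (m.le.trans (pCoreOf_le _))) m.pp.q1) a1 j3 (by
    rw [hL, cent_sup]; exact le_inf (inf_le_left.trans b1) inf_le_right)
  have r8 : ix (ncl B₀ L) A ≤ 4 := by
    refine le_trans (ix_le_of ?_) ((ix_sup_le _ _ _).trans (Nat.mul_le_mul r6 r7))
    refine le_trans ?_ (cent_anti e1)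
    rw [← sup_assoc, cent_sup _ C]
    exact le_inf inf_le_right (inf_le_left.trans (r1.trans (cent_comm.1 inf_le_right)))
  have nR := norm_inf (le_norm_ncl B₀ L) (norm_centralizer nA)
  have r9 := (commutator_mono le_rfl m.ll.res_le_comm).trans (comm_le_of_index_four inf_le_left
    (r1.trans nR) (le_norm_ncl B₀ L) nR (by rwa [inf_relIndex_left])
    (not_involves_mono m.l_le (hP β m.pp.good).2))
  have s1 : ⁅⁅pResidualOf 2 L, A⁆, ncl B₀ L⁆ ≤ ⊥ :=
    three_subgroups norm_of_normal norm_of_normal norm_of_normal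
      (comm_le_bot_iff.2 (r3.trans (inf_le_right.trans (cent_anti (pRes_le _)))))
      (comm_le_bot_iff.2 (r9.trans inf_le_right))
  have s2 : zz 2 (H70.cj y κ) ≤ centralizer (B₀ : Set G) := by
    rw [zz, ← cj_YL]
    refine (cj_le_ncl _ m.ll.mem).trans ((ncl_eq_sup_comm _ _).le.trans (sup_le
      (b1.trans (cent_anti m.ll.le)) ?_))
    exact (commutator_mono a1 le_rfl).trans ((commutator_comm _ _).le.trans
      ((comm_le_bot_iff.1 s1).trans (cent_anti (le_ncl _ _))))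
  rw [ix_eq_one.2 (cent_comm.1 s2)] at i2
  omega

end SF

end Cfsg.Agent.H4
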